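import Mathlib
import Cfsg.Agent.Lib.Helper31.OTSM.Defs
import Cfsg.Agent.Lib.Helper44.Gram

/-!
# Project OTSM (S5987): package [MINUSNDF]

The minus form `quadFormMinus k F a b` over a FINITE field with anisotropic binary part is a
nondegenerate quadratic form, in all characteristics.  The Gram determinant of the polar form is
`± (4 b - a²)`; anisotropy gives `4 b - a² ≠ 0` (in characteristic 2 because every element of a
finite field of characteristic 2 is a square).
-/

set_option autoImplicit false
open scoped MatrixGroups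
open Matrix

namespace Cfsg.Agent.Lib.Helper46.OTSM

open Cfsg.Agent.Lib.Helper64.OParM Cfsg.Agent.Lib.Helper31.OTSM

universe u

/-- The swap block matrix is invertible in every characteristic. -/
theorem det_swapBlocks_ne_zero (m : ℕ) (F : Type u) [Field F] :
    (Cfsg.Agent.Lib.Helper44.swapBlocks m F).det ≠ 0 := by
  have h : Cfsg.Agent.Lib.Helper44.swapBlocks m F * Cfsg.Agent.Lib.Helper44.swapBlocks m F = 1 := by
    simp [Cfsg.Agent.Lib.Helper44.swapBlocks, Matrix.fromBlocks_multiply, Matrix.fromBlocks_one]
  intro h0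
  have h1 := congrArg Matrix.det h
  rw [Matrix.det_mul, h0, Matrix.det_one, mul_zero] at h1
  exact zero_ne_one h1

/-- The discriminant of an anisotropic binary form over a finite field is non-zero. -/
theorem aniso_disc_ne_zero {F : Type u} [Field F] [Fintype F] {a b : F} (hab : Aniso a b) :
    4 * b - a ^ 2 ≠ 0 := by
  intro h
  by_cases h2 : (2 : F) = 0
  · -- characteristic 2: `a = 0`, `b = s²`, and `(s, 1)` is a zero
    have h4 : (4 : F) = 0 := by
      have : (4 : F) = 2 * 2 := by norm_num
      rw [this, h2, mul_zero]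
    have ha : a = 0 := by
      rw [h4, zero_mul, zero_sub, neg_eq_zero] at h
      exact pow_eq_zero_iff (two_ne_zero) |>.mp h
    have : CharP F 2 := CharTwo.of_one_ne_zero_of_two_eq_zero one_ne_zero h2
    obtain ⟨s, hs⟩ := FiniteField.isSquare_of_char_two (ringChar.eq F 2) b
    have h1 := hab s 1 (by
      rw [ha, hs]
      have : s ^ 2 + 0 * s * 1 + s * s * 1 ^ 2 = 2 * (s * s) := by ring
      rw [this, h2, zero_mul])
    exact one_ne_zero h1.2
  · have h1 := hab a (-2) (by linear_combination h)
    exact h2 (by linear_combination -h1.2)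

/-- The Gram determinant of the minus form (all characteristics). -/
theorem det_minusGram_ne_zero (k : ℕ) (F : Type u) [Field F] (a c : F) (hd : 4 * c - a ^ 2 ≠ 0) :
    (Cfsg.Agent.Lib.Helper44.minusGram k F a c).det ≠ 0 := by
  rw [Cfsg.Agent.Lib.Helper44.minusGram, Matrix.det_fromBlocks_zero₂₁, Matrix.det_fin_two_of]
  refine mul_ne_zero (det_swapBlocks_ne_zero k F) ?_
  intro h
  exact hd (by linear_combination h)

/-- `quadFormMinus k F a c` is a nondegenerate quadratic form when `4 c - a² ≠ 0` (all
characteristics; the argument of `Helper54.OHyp.quadFormMinus_nondeg`). -/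
theorem quadFormMinus_nondeg_of_disc {F : Type u} [Field F] (k : ℕ) (a c : F)
    (hd : 4 * c - a ^ 2 ≠ 0) :
    Cfsg.Geo.IsNondegenerateQuadraticForm (Cfsg.quadFormMinus k F a c) := by
  have hpol : ∀ u v, QuadraticMap.polar (Cfsg.quadFormMinus k F a c) u v =
      Cfsg.Agent.Lib.Helper44.minusPolar k F a c u v :=
    Cfsg.Agent.Lib.Helper44.polar_quadFormMinus k F a c
  refine ⟨?_, ⟨?_, ?_, ?_, ?_⟩, ?_⟩
  · intro t v
    simp only [Cfsg.quadFormMinus, Pi.smul_apply, smul_eq_mul]
    rw [mul_add, Finset.mul_sum]
    congr 1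
    · apply Finset.sum_congr rfl
      intro i _
      ring
    · ring
  · intro x y v
    rw [hpol, hpol, hpol, map_add, LinearMap.add_apply]
  · intro t x v
    rw [hpol, hpol, map_smul, LinearMap.smul_apply, smul_eq_mul]
  · intro v x y
    rw [hpol, hpol, hpol, map_add]
  · intro t v x
    rw [hpol, hpol, map_smul, smul_eq_mul]
  · have hdet : (Cfsg.Agent.Lib.Helper44.minusGram k F a c).det ≠ 0 :=
      det_minusGram_ne_zero k F a c hd
    intro v hv
    have h1 : ∃ w, QuadraticMap.polar (Cfsg.quadFormMinus k F a c) v w ≠ 0 := by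
      by_contra hcon
      simp only [not_exists, not_not] at hcon
      apply hv
      apply Matrix.eq_zero_of_vecMul_eq_zero hdet
      apply dotProduct_eq_zero
      intro w
      have h3 := hcon w
      rw [hpol] at h3
      rw [← Matrix.dotProduct_mulVec]
      simpa [Cfsg.Agent.Lib.Helper44.minusPolar, Matrix.toBilin'_apply'] using h3
    refine ⟨?_, h1⟩
    obtain ⟨w, hw⟩ := h1
    exact ⟨w, by rwa [QuadraticMap.polar_comm]⟩

/-- [MINUSNDF] the minus form over a finite field is a nondegenerate quadratic form (all
characteristics). -/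
theorem pkgMinusNdF : PkgMinusNdF.{u} := by
  intro F _ _ k a b hab
  exact quadFormMinus_nondeg_of_disc k a b (aniso_disc_ne_zero hab)

end Cfsg.Agent.Lib.Helper46.OTSM
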