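import Mathlib
import Cfsg.Agent.Lib.Helper31.OTSM.Defs
import Cfsg.Agent.Lib.Helper46.OTSM.MinusNdF
import Cfsg.Agent.Lib.Helper70.OPar.Defs
import Cfsg.Agent.Lib.Helper45.OPar.Scal
import Cfsg.Agent.Lib.Helper44.OElp.OddOmega
import Cfsg.Agent.Lib.Helper14.Isom

/-!
# Project OTSM (S5987): package [REDM]

Reduction from `x ∈ Ω⁻`, `x ^ r` scalar, `x` not scalar to isometries `y ≠ 1` with `y ^ r = 1`
(`r` an odd prime; all characteristics).  The minus mirror of helper53's OTSP [RED4].
-/

set_option autoImplicit false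
open scoped MatrixGroups
open Matrix

namespace Cfsg.Agent.Lib.Helper46.OTSM

open Cfsg.Agent.Lib.Helper23.OHyp Cfsg.Agent.Lib.Helper64.OParM Cfsg.Agent.Lib.Helper99.OTSP
  Cfsg.Agent.Lib.Helper31.OTSM

universe u

/-- `z * z = 1` and `r` odd: `z ^ (r + 1) = 1`. -/
theorem pow_succ_of_sq_m {F : Type u} [Field F] (z : F) (hz : z * z = 1) (r : ℕ) (hr : Odd r) :
    z ^ (r + 1) = 1 := by
  obtain ⟨k, rfl⟩ := hr
  have h : 2 * k + 1 + 1 = 2 * (k + 1) := by ring
  rw [h, pow_mul, pow_two, hz, one_pow]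

/-- `z * z = 1`, `z ^ r = 1` and `r` odd: `z = 1`. -/
theorem eq_one_of_sq_of_pow_m {F : Type u} [Field F] (z : F) (hz : z * z = 1) (r : ℕ)
    (hr : Odd r) (hzr : z ^ r = 1) : z = 1 := by
  obtain ⟨k, rfl⟩ := hr
  rw [pow_succ, pow_mul, pow_two, hz, one_pow, one_mul] at hzr
  exact hzr

/-- **[REDM]** from the nondegeneracy of the minus form. -/
theorem pkgRedM_of (hND : PkgMinusNdF.{u}) : PkgRedM.{u} := by
  intro F _ _ k m r a b hab hr hr2 hk
  have hnd := hND F k a b hab
  have hS := Cfsg.Agent.Lib.Helper45.OPar.pkgScal.{u}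
  have : Nonempty (MI k) := ⟨Sum.inr 0⟩
  have hrodd : Odd r := hr.odd_of_ne_two hr2
  have hcard : Fintype.card (MI k) = 2 * k + 2 := by
    simp [MI]; ring
  constructor
  · intro h y hy hyr hne
    have hyO : y ∈ Cfsg.Geo.omegaGL (Cfsg.quadFormMinus k F a b) := by
      refine Cfsg.Agent.Lib.Helper44.OElp.pkgOddOmegaE F (MI k) (Cfsg.quadFormMinus k F a b) hnd
        (fun _ => Or.inr (by rw [hcard]; omega)) y hy ?_
      exact Odd.of_dvd_nat hrodd (orderOf_dvd_of_pow_eq_one hyr)
    have hisom := (Cfsg.Agent.Lib.Helper14.mem_isometryGroup_iff _ y).mp hy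
    refine h y hyO ⟨1, ?_⟩ ?_
    · rw [hyr, one_smul]
      rfl
    · intro z hz
      have hzz : z * z = 1 := hS F (MI k) (Cfsg.quadFormMinus k F a b) hnd z (by
        intro v
        rw [← hz]
        exact hisom v)
      have hpow : (y : Matrix (MI k) (MI k) F) ^ r = 1 := by
        rw [← Units.val_pow_eq_pow_val, hyr]
        rfl
      rw [hz, smul_pow, one_pow] at hpow
      have hzr : z ^ r = 1 := by
        have h1 := congrFun (congrFun hpow (Sum.inr 0)) (Sum.inr 0)
        simpa using h1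
      have hz1 : z = 1 := eq_one_of_sq_of_pow_m z hzz r hrodd hzr
      apply hne
      apply Units.ext
      rw [hz, hz1, one_smul]
      rfl
  · intro h x hx hxr hns
    have hx' : x ∈ (Cfsg.Omega F (Cfsg.quadFormMinus k F a b)).map
        (Cfsg.isometryGroup F (Cfsg.quadFormMinus k F a b)).subtype := hx
    obtain ⟨g, -, hgx⟩ := Subgroup.mem_map.mp hx'
    have hxI : x ∈ Cfsg.isometryGroup F (Cfsg.quadFormMinus k F a b) := by
      rw [← hgx]
      exact g.2
    have hisom := (Cfsg.Agent.Lib.Helper14.mem_isometryGroup_iff _ x).mp hxI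
    obtain ⟨z, hz⟩ := hxr
    rw [Units.val_pow_eq_pow_val] at hz
    have hisomr : ∀ (n : ℕ) v, Cfsg.quadFormMinus k F a b
        (((x : Matrix (MI k) (MI k) F) ^ n) *ᵥ v) = Cfsg.quadFormMinus k F a b v := by
      intro n
      induction n with
      | zero => intro v; simp
      | succ n ih =>
        intro v
        rw [pow_succ, ← Matrix.mulVec_mulVec, ih, hisom]
    have hzz : z * z = 1 := hS F (MI k) (Cfsg.quadFormMinus k F a b) hnd z (by
      intro v
      rw [← hz]
      exact hisomr r v)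
    -- the unit `z • 1`
    let Z : GL (MI k) F :=
      ⟨z • 1, z • 1, by rw [smul_mul_smul_comm, hzz, one_mul, one_smul],
        by rw [smul_mul_smul_comm, hzz, one_mul, one_smul]⟩
    have hZx : ((Z * x : GL (MI k) F) : Matrix (MI k) (MI k) F) =
        z • (x : Matrix (MI k) (MI k) F) := by
      rw [Units.val_mul]
      show (z • (1 : Matrix (MI k) (MI k) F)) * _ = _
      rw [Matrix.smul_mul, one_mul]
    have hyI : Z * x ∈ Cfsg.isometryGroup F (Cfsg.quadFormMinus k F a b) := by
      rw [Cfsg.Agent.Lib.Helper14.mem_isometryGroup_iff]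
      intro v
      rw [hZx, Matrix.smul_mulVec, hnd.smul, hisom, pow_two, hzz, one_mul]
    have hyr : (Z * x) ^ r = 1 := by
      apply Units.ext
      rw [Units.val_pow_eq_pow_val, hZx, smul_pow, hz, smul_smul, ← pow_succ,
        pow_succ_of_sq_m z hzz r hrodd, one_smul]
      rfl
    have hyne : Z * x ≠ 1 := by
      intro h1
      have h2 : z • (x : Matrix (MI k) (MI k) F) = 1 := by
        rw [← hZx, h1]
        rfl
      apply hns z
      have h3 : (x : Matrix (MI k) (MI k) F) =
          z • (z • (x : Matrix (MI k) (MI k) F)) := by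
        rw [smul_smul, hzz, one_smul]
      rw [h3, h2]
    obtain ⟨W, hWd, hWts, hWinv⟩ := h (Z * x) hyI hyr hyne
    refine ⟨W, hWd, hWts, ?_⟩
    rw [Submodule.map_le_iff_le_comap] at hWinv ⊢
    intro w hw
    have h1 := hWinv hw
    rw [Submodule.mem_comap, Matrix.toLin'_apply, hZx, Matrix.smul_mulVec] at h1
    rw [Submodule.mem_comap, Matrix.toLin'_apply]
    have h2 : (x : Matrix (MI k) (MI k) F) *ᵥ w =
        z • (z • ((x : Matrix (MI k) (MI k) F) *ᵥ w)) := by
      rw [smul_smul, hzz, one_smul]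
    rw [h2]
    exact W.smul_mem z h1

/-- **[REDM]**, unconditional. -/
theorem pkgRedM : PkgRedM.{u} := pkgRedM_of pkgMinusNdF

end Cfsg.Agent.Lib.Helper46.OTSM
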